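import Cfsg.Agent.H6.HermCore

/-! Unitary and orthogonal similarity groups in `SL_4`: transvections. -/

set_option autoImplicit false
set_option linter.unusedSimpArgs false
set_option linter.unusedSectionVars false
set_option linter.unusedVariables false

namespace Cfsg.Agent.H9.L4

open Module Cfsg.Agent.H6 Cfsg.Agent.H6.HF

variable {F : Type*} [Field F] {V : Type*} [AddCommGroup V] [Module F V] (B : HF F V)
  [Finite F] [FiniteDimensional F V] {M : Subgroup (V ≃ₗ[F] V)}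

theorem nti1 (hn : 3 ≤ finrank F V) (b : V) :
    ∃ w w', B.h w b = 0 ∧ B.h w' b = 0 ∧ B.h w w' ≠ 0 := by
  by_contra! hcon
  obtain ⟨w, h1, h3⟩ := exists_not_mem_one (K := LinearMap.ker (B.fn b))
    (by have := finrank_ker_ge (B.fn b); omega) b
  obtain ⟨a, ha⟩ := B.mem_one_of_perp (x := b) (z := w) fun x hx => hcon x w hx h1
  exact h3 a ha

theorem nti2 (hn : 4 ≤ finrank F V) {v b : V} (hv : B.h v v ≠ 0) (hb : B.h b v = 0) :
    ∃ w w', B.h w v = 0 ∧ B.h w b = 0 ∧ B.h w' v = 0 ∧ B.h w' b = 0 ∧ B.h w w' ≠ 0 := by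
  by_contra! hcon
  obtain ⟨w, ⟨h1, h2⟩, h3⟩ := exists_not_mem_one (K := LinearMap.ker (B.fn v) ⊓ LinearMap.ker (B.fn b))
    (by have := finrank_ker₂_ge (B.fn v) (B.fn b); omega) b
  obtain ⟨a, c, rfl⟩ := B.mem_pair_of_perp (x := v) (y := b) (z := w) fun x a c => hcon x w a c h1 h2
  have : a = 0 := by simpa [hb, hv] using h1
  exact h3 c (by simp [this])

theorem nti3 (hn : 3 ≤ finrank F V) {e u : V} (he : B.h e e = 0) (hu : B.h u u = 0)
    (h : B.h u e ≠ 0) : ∃ w, B.h w e = 0 ∧ B.h w u = 0 ∧ B.h w w ≠ 0 := by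
  by_contra! hcon
  obtain ⟨w, ⟨h1, h2⟩, h3⟩ := exists_ne_zero_of_finrank
    (K := LinearMap.ker (B.fn e) ⊓ LinearMap.ker (B.fn u))
    (by have := finrank_ker₂_ge (B.fn e) (B.fn u); omega)
  obtain ⟨a, c, rfl⟩ := B.mem_pair_of_perp (x := e) (y := u) (z := w) fun x a c =>
    B.zero_of_all_iso (LinearMap.ker (B.fn e) ⊓ LinearMap.ker (B.fn u))
      (fun x hx => hcon x hx.1 hx.2) ⟨a, c⟩ ⟨h1, h2⟩
  have k1 : c = 0 := by simpa [he, h] using h1
  have k2 : a = 0 := by simpa [hu, B.symm_ne h] using h2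
  simp [k1, k2] at h3

theorem hyp {e f : V} (he : B.h e e = 0) (hf : B.h f e = 1) :
    ∃ c : F, B.h (f - c • e) (f - c • e) = 0 := by
  obtain ⟨c, hc⟩ := B.tr_h f
  have : B.h e f = 1 := by rw [← B.herm, hf, map_one]
  exact ⟨c, by simp [he, hf, this, ← hc]⟩

theorem hyp' {e : V} (he0 : e ≠ 0) (he : B.h e e = 0) : ∃ f, B.h f f = 0 ∧ B.h f e = 1 := by
  obtain ⟨f, hf⟩ := B.exists_ne e he0
  obtain ⟨c, hc⟩ := hyp B he hf
  exact ⟨_, hc, by simp [hf, he]⟩

theorem perp_irr (hn : 4 ≤ finrank F V) {v : V} (hv : B.h v v ≠ 0) (A : AddSubgroup V)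
    (hE : ∀ b w, B.h b v = 0 → B.h w v = 0 → ∀ (c : F) (hb : B.h b b = 0) (hw : B.h w b = 0),
      c + B.σ c = B.h w w → ∀ a ∈ A, B.E b w c hb hw a ∈ A) {a : V} (ha : a ∈ A) (ha0 : a ≠ 0)
    (hav : B.h a v = 0) : ∀ x, B.h x v = 0 → x ∈ A := by
  have nd : ∀ a, a ≠ 0 → B.h a v = 0 → ∃ y, B.h y v = 0 ∧ B.h y a ≠ 0 := fun a ha0 hav => by
    by_contra! h
    obtain ⟨c, rfl⟩ := B.mem_one_of_perp h
    simp_all
  obtain ⟨e, he, he0, hee⟩ := B.iso (LinearMap.ker (B.fn v)) (by have := finrank_ker_ge (B.fn v); omega)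
  obtain ⟨f, f1, f2⟩ := nd e he0 he
  obtain ⟨y, y1, y2⟩ := nd a ha0 hav
  exact B.irr (LinearMap.ker (B.fn v)) he f1 hee f2 (fun b hb => by
    obtain ⟨w, w', k1, k2, k3, k4, k5⟩ := nti2 B hn hv hb
    exact ⟨w, k1, w', k3, k2, k4, k5⟩) A (fun b hb w hw => hE b w hb hw) ha y1 (B.symm_ne y2)

variable (hn : 4 ≤ finrank F V) (hI : ∀ g ∈ SLV F V, B.Isom g → g ∈ M)
include hn hI

theorem E_mem {b w : V} {c : F} (hb : B.h b b = 0) (hw : B.h w b = 0) (hc : c + B.σ c = B.h w w) :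
    B.E b w c hb hw ∈ M := hI _ (B.E_mem_SLV _ _ _ _ _) (B.E_isom hb hw hc)

theorem caseA {v : V} {φ : Dual F V} (hT : HasT M v φ) (h0 : φ v = 0) (hφ : φ ≠ 0)
    (hv : B.h v v ≠ 0) : SLV F V ≤ M := by
  obtain ⟨a, rfl⟩ := B.fn_surjective φ
  let A : AddSubgroup V :=
    { carrier := {a | B.h a v = 0 ∧ HasT M v (B.fn a)}
      zero_mem' := ⟨by simp, by rw [fn_zero]; exact HasT.zero_right _⟩
      add_mem' := fun {x y} hx hy => ⟨by simp [hx.1, hy.1], by
        rw [fn_add]; exact hx.2.add_right hy.2 (by simpa using B.symm_zero hx.1)⟩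
      neg_mem' := fun {x} hx => ⟨by simp [hx.1], by
        rw [fn_neg]; exact hx.2.neg_right (by simpa using B.symm_zero hx.1)⟩ }
  have hfull : Full M v := fun φ hφ => by
    obtain ⟨x, rfl⟩ := B.fn_surjective φ
    refine (perp_irr B hn hv A (fun b w hb hw c hbb hwb hc a ha => ?_) (a := a) ⟨B.symm_zero h0, hT⟩
      (by rintro rfl; exact ‹B.fn 0 ≠ 0› B.fn_zero) (B.symm_zero h0) x (B.symm_zero hφ)).2
    have hi := B.E_isom hbb hwb hc
    have hfix : B.E b w c hbb hwb v = v := B.E_fix _ _ (B.symm_zero hb) (B.symm_zero hw)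
    refine ⟨by rw [← hfix, hi]; exact ha.1, ?_⟩
    have := hasT_conj_isom ha.2 (E_mem B hn hI hbb hwb hc) hi
    rwa [hfix] at this
  obtain ⟨e, -, he0, hee⟩ := B.iso ⊤ (by simp; omega)
  obtain ⟨f, hf⟩ := B.exists_ne e he0
  have := B.irr ⊤ (e := e) (f := f) trivial trivial hee (by simp [hf]) (fun b _ => by
      obtain ⟨w, w', k1, k2, k3⟩ := nti1 B (by omega) b
      exact ⟨w, trivial, w', trivial, k1, k2, k3⟩) (fullSub M).toAddSubgroup
      (fun b _ w _ c hbb hwb hc a ha => Full.map ha (E_mem B hn hI hbb hwb hc)) (a := v) hfull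
      (y := v) trivial hv
  exact SLV_le_of_full fun v => this v trivial

theorem caseD {u : V} (hu0 : u ≠ 0) (hu : B.h u u = 0) {c : F} (hc : c + B.σ c ≠ 0)
    (hT : HasT M u (c • B.fn u)) : SLV F V ≤ M := by
  obtain ⟨e, he, heu⟩ := hyp' B hu0 hu
  have hue : B.h u e = 1 := by rw [← B.herm, heu, map_one]
  obtain ⟨w, w1, w2, w3⟩ := nti3 B (by omega) he hu (by simp [hue])
  obtain ⟨d, hd⟩ := B.tr_h w
  have d0 : d ≠ 0 := by rintro rfl; simp [← hd] at w3
  have hi := B.E_isom he w1 hd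
  set u' := B.E e w d he w1 u with hu'
  have h1 : B.h u' u = -d := by simp [hu', E_apply, hu, w2, heu, hue, B.symm_zero w2]
  have h2 : B.h u u' = -B.σ d := by rw [← B.herm, h1, map_neg]
  have h3 : B.h u' u' = 0 := by rw [hi, hu]
  have hT' : HasT M u' (c • B.fn u') := hT.conj (E_mem B hn hI he w1 hd) fun x => by
    simp [hu', hi x u]
  obtain ⟨k, hk, hk'⟩ := id hT'
  refine caseA B hn hI (hT.conj' hk) (by simp [hu]) (fun h => ?_) ?_
  · have := LinearMap.congr_fun h (k e)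
    simp [heu] at this
    simp [this] at hc
  · simp only [hk', LinearMap.smul_apply, fn_apply, smul_eq_mul, add_left, add_right, smul_left,
      smul_right, hu, h1, h2, h3, map_mul, map_neg, σσ]
    intro h
    exact mul_ne_zero (mul_ne_zero hc d0) (B.σ_ne d0) (by linear_combination h)

theorem tv_cases {v : V} {φ : Dual F V} (hT : HasT M v φ) (h0 : φ v = 0) (hv0 : v ≠ 0)
    (hne : ¬ SLV F V ≤ M) : φ = 0 ∨ B.h v v = 0 ∧ ∃ c, c + B.σ c = 0 ∧ φ = c • B.fn v := by
  by_contra! hcon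
  obtain ⟨hφ, hcon⟩ := hcon
  have hv : B.h v v = 0 := by_contra fun hv => hne (caseA B hn hI hT h0 hφ hv)
  obtain ⟨a, rfl⟩ := B.fn_surjective φ
  replace h0 : B.h v a = 0 := h0
  have ha : B.h a a = 0 := by_contra fun ha => hne (by
    let A : AddSubgroup V :=
      { carrier := {v | B.h v a = 0 ∧ HasT M v (B.fn a)}
        zero_mem' := ⟨by simp, HasT.zero_left _⟩
        add_mem' := fun {x y} hx hy => ⟨by simp [hx.1, hy.1], hx.2.add_left hy.2 hy.1⟩
        neg_mem' := fun {x} hx => ⟨by simp [hx.1], hx.2.neg_left hx.1⟩ }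
    obtain ⟨w, w', k1, -, k3, -, k5⟩ := nti2 B hn ha (b := 0) (by simp)
    obtain ⟨x, x1, x2⟩ : ∃ x, B.h x a = 0 ∧ B.h x x ≠ 0 := by
      by_contra! h
      exact k5 (B.zero_of_all_iso (LinearMap.ker (B.fn a)) h k1 k3)
    refine caseA B hn hI (perp_irr B hn ha A (fun b w hb hw c hbb hwb hc y hy => ?_) (a := v)
      ⟨h0, hT⟩ hv0 h0 x x1).2 x1 hφ x2
    have hi := B.E_isom hbb hwb hc
    have hfix : B.E b w c hbb hwb a = a := B.E_fix _ _ (B.symm_zero hb) (B.symm_zero hw)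
    refine ⟨by rw [← hfix, hi]; exact hy.1, ?_⟩
    have := hasT_conj_isom hy.2 (E_mem B hn hI hbb hwb hc) hi
    rwa [hfix] at this)
  by_cases h : ∃ c : F, B.fn a = c • B.fn v
  · obtain ⟨c, hc⟩ := h
    exact hne (caseD B hn hI hv0 hv (fun h => hcon hv c h hc) (hc ▸ hT))
  have ha0 : a ≠ 0 := by rintro rfl; exact hφ B.fn_zero
  obtain ⟨f, f1, f2⟩ := exists_vec_pair (φ := B.fn a) (ψ := B.fn v) fun c hc => h ⟨c⁻¹, by
    have : c ≠ 0 := by rintro rfl; exact hv0 (B.fn_injective (by simp [hc, fn_zero]))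
    rw [hc, inv_smul_smul₀ this]⟩
  replace f1 : B.h f a = 0 := f1
  replace f2 : B.h f v = 1 := f2
  obtain ⟨d, hd⟩ := hyp B hv f2
  obtain ⟨t, ht⟩ := B.t0
  have h1 : B.h (t • a) (f - d • v) = 0 := by simp [B.symm_zero f1, B.symm_zero h0]
  have h2 : (0 : F) + B.σ 0 = B.h (t • a) (t • a) := by simp [ha]
  have := hasT_conj_isom hT (E_mem B hn hI hd h1 h2) (B.E_isom hd h1 h2)
  rw [B.E_fix _ _ (x := a) (by simp [B.symm_zero f1, B.symm_zero h0]) (by simp [ha])] at this
  refine hne (caseD B hn hI ha0 ha ht ((this.sub_left hT h0).congr fun x => ?_))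
  have f3 : B.h v f = 1 := by rw [← B.herm, f2, map_one]
  simp [E_apply, f3, hv, h0, smul_smul, mul_comm]

omit hI in
theorem proper4 : ∃ g ∈ SLV F V, ¬ B.Sim g := by
  obtain ⟨e, -, he0, hee⟩ := B.iso ⊤ (by simp; omega)
  obtain ⟨f, f1, f2⟩ := hyp' B he0 hee
  obtain ⟨w, hw, -, hww⟩ := nti3 B (by omega) hee f1 (by simp [f2])
  obtain ⟨φ, h1, h2⟩ := exists_dual_pair (F := F) (u := w) (v := e) (by
    rintro c rfl
    simp only [smul_left, smul_right, mul_eq_zero, map_eq_zero, hww, or_false, or_self] at hee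
    simp [hee] at he0)
  refine ⟨tv w φ h1, tv_mem_SLV _ _ _, ?_⟩
  rintro ⟨c, hc⟩
  have := hc e e
  simp [h2, hee, hw, B.symm_zero hw] at this
  exact hww this

theorem u_core {c₀ : F} (c0 : c₀ ≠ 0) (c1 : c₀ + B.σ c₀ = 0) {g : V ≃ₗ[F] V} (hg : g ∈ M)
    (hne : ¬ SLV F V ≤ M) : B.Sim g := by
  have eig : ∀ e, B.h e e = 0 → ∃ l : F, ∀ y, B.h (g y) (g e) = l * B.h y e := by
    intro e hee
    by_cases he0 : e = 0
    · exact ⟨0, by simp [he0]⟩
    have h1 : HasT M e (c₀ • B.fn e) := ⟨_, E_mem B hn hI hee (w := 0) (c := -c₀) (by simp)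
      (by simp; linear_combination -c1), fun x => by simp [E_apply]⟩
    obtain ⟨f, hf⟩ := B.exists_ne e he0
    rcases tv_cases B hn hI (h1.conj' hg) (by simp [hee]) (by simpa using he0) hne with h | ⟨-, c, -, h⟩
    · simpa [hf, c0] using LinearMap.congr_fun h (g f)
    have hc : c ≠ 0 := by rintro rfl; simpa [hf, c0] using LinearMap.congr_fun h (g f)
    refine ⟨c₀ / c, fun y => ?_⟩
    have := LinearMap.congr_fun h (g y)
    simp at this
    field_simp; linear_combination -this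
  have uniq : ∀ e (l l' : F), e ≠ 0 → (∀ y, B.h (g y) (g e) = l * B.h y e) →
      (∀ y, B.h (g y) (g e) = l' * B.h y e) → l = l' := by
    intro e l l' he h1 h2
    obtain ⟨f, hf⟩ := B.exists_ne e he
    simpa [hf] using (h1 f).symm.trans (h2 f)
  have perp : ∀ e e' (l l' : F), e ≠ 0 → e' ≠ 0 → B.h (e + e') (e + e') = 0 →
      (∀ y, B.h (g y) (g e) = l * B.h y e) → (∀ y, B.h (g y) (g e') = l' * B.h y e') →
      l = l' := by
    intro e e' l l' he he' h0 h1 h2
    obtain ⟨m, hm⟩ := eig (e + e') h0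
    simp only [map_add, add_right, h1, h2] at hm
    by_cases hl : l = m
    · obtain ⟨f, hf⟩ := B.exists_ne e' he'
      have := hm f
      rw [hf, hl] at this
      rw [hl]
      linear_combination -this
    · refine uniq e l l' he h1 fun y => ?_
      have hl' : l - m ≠ 0 := sub_ne_zero.2 hl
      have h3 : e = B.σ ((m - l') / (l - m)) • e' := by
        apply B.ext_right
        intro v
        simp only [smul_right, σσ]
        field_simp
        linear_combination hm v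
      rw [h3]
      simp only [map_smul, smul_right, h2]
      ring
  obtain ⟨e, -, he0, hee⟩ := B.iso ⊤ (by simp; omega)
  obtain ⟨f, hf⟩ := B.exists_ne e he0
  obtain ⟨l, hl⟩ := eig e hee
  let S : AddSubgroup V :=
    { carrier := {x | ∀ y, B.h (g y) (g x) = l * B.h y x}
      zero_mem' := by simp
      add_mem' := fun {x x'} hx hx' y => by simp [hx y, hx' y, mul_add]
      neg_mem' := fun {x} hx y => by simp [hx y] }
  have hall := B.span_iso ⊤ (e := e) (f := f) trivial trivial hee (by simp [hf]) S (by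
    intro b _ hbb
    by_cases hb0 : b = 0
    · rw [hb0]; exact S.zero_mem
    obtain ⟨m, hm⟩ := eig b hbb
    obtain ⟨c, c2, c3⟩ : ∃ c : F, c ≠ 0 ∧ B.h (e + c • b) (e + c • b) = 0 := by
      by_cases h : B.h b e = 0
      · exact ⟨1, one_ne_zero, by simp [hee, hbb, h, B.symm_zero h]⟩
      · refine ⟨c₀ / B.h b e, div_ne_zero c0 h, ?_⟩
        have := B.symm_ne h
        simp [hee, hbb, h, this]
        linear_combination c1
    intro y
    rw [hm, perp e (c • b) l m he0 (smul_ne_zero c2 hb0) c3 hl fun y => by simp [hm]; ring])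
  have hl0 : l ≠ 0 := by
    rintro rfl
    apply he0
    apply g.injective
    rw [map_zero]
    apply B.nondeg
    intro x
    simpa using hl (g⁻¹ x)
  exact ⟨Units.mk0 l hl0, fun x y => hall y trivial x⟩

omit hn hI in
theorem u_maximal4 (σ : F ≃+* F) (f : (Fin 4 → F) → (Fin 4 → F) → F) (hf : Geo.IsUnitaryForm σ f) :
    Geo.IsMaximalIn (Geo.specialLinear (Fin 4) F)
      (Geo.similarityGroup f ⊓ Geo.specialLinear (Fin 4) F) := by
  obtain ⟨t, ht⟩ : ∃ t, σ t ≠ t := by
    by_contra! h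
    exact hf.ne_refl (RingEquiv.ext h)
  let B : HF F (Fin 4 → F) :=
    { σ := σ.toRingHom
      σσ := hf.involutive
      h := f
      add_left := hf.add_left
      smul_left := hf.smul_left
      herm := fun v w => (hf.herm v w).symm
      nondeg := fun z hz => by
        by_contra h
        obtain ⟨x, hx⟩ := (hf.nondegenerate z h).1
        exact hx (hz x)
      t0 := by
        by_contra! h
        apply hf.ne_refl
        have h1 : ∀ t, σ t = -t := fun t => by
          have : t + σ t = 0 := h t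
          linear_combination this
        have h2 : (1 : F) = -1 := by rw [← h1, map_one]
        ext t
        rw [h1, RingEquiv.refl_apply]
        linear_combination (-t) * h2 }
  refine isMaximalIn_of_core (LinearEquiv.refl F _) _ B.Sim
    (fun _ => Iff.rfl) (proper4 B (by simp)) fun M hM h1 ⟨g, hg, h2⟩ => by_contra fun hne => h2 ?_
  exact u_core B (by simp) (fun g hg hi => h1 g hg ⟨1, fun x y => by simpa using hi x y⟩)
    (c₀ := σ t - t) (sub_ne_zero.2 ht) (by simp [B, hf.involutive t]) hg hne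

end Cfsg.Agent.H9.L4
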