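import Cfsg.Agent.H9.L4.Herm1

/-! Orthogonal similarity groups in `SL_4`. -/

set_option autoImplicit false
set_option linter.unusedSimpArgs false
set_option linter.unusedSectionVars false
set_option linter.unusedVariables false

namespace Cfsg.Agent.H9.L4

open Module Cfsg.Agent.H6 Cfsg.Agent.H6.HF

variable {F : Type*} [Field F] {V : Type*} [AddCommGroup V] [Module F V] (B : HF F V)
  [Finite F] [FiniteDimensional F V] {M : Subgroup (V ≃ₗ[F] V)}

theorem perp_pair (hn : finrank F V = 4) {e p x : V} (hi : ∀ a b : F, a • e + b • p = 0 → a = 0 ∧ b = 0)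
    (he : B.h e e = 0) (hp : B.h p p = 0) (hep : B.h e p = 0) (h1 : B.h x e = 0) (h2 : B.h x p = 0) :
    ∃ a b : F, x = a • e + b • p := by
  by_contra! hx
  have he0 : e ≠ 0 := fun h => one_ne_zero (hi 1 0 (by simp [h])).1
  obtain ⟨f, hf⟩ := B.exists_ne e he0
  obtain ⟨f', f1, f2⟩ : ∃ f', B.h f' e = 0 ∧ B.h f' p ≠ 0 := by
    by_contra! h
    obtain ⟨a, ha⟩ := B.mem_one_of_perp h
    exact one_ne_zero (hi (-a) 1 (by simp [ha])).2
  have a1 := finrank_span_singleton (K := F) he0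
  have a2 : F ∙ e < Submodule.span F {e, p} := SetLike.lt_iff_le_and_exists.2
    ⟨Submodule.span_mono (by simp), p, Submodule.subset_span (by simp), fun h => by
      obtain ⟨a, ha⟩ := Submodule.mem_span_singleton.1 h
      exact one_ne_zero (hi (-a) 1 (by simp [← ha])).2⟩
  have a3 : Submodule.span F {e, p} < LinearMap.ker (B.fn e) ⊓ LinearMap.ker (B.fn p) :=
    SetLike.lt_iff_le_and_exists.2 ⟨Submodule.span_le.2 (by
      rintro _ (rfl | rfl) <;> simp [he, hp, hep, B.symm_zero hep]), x, Submodule.mem_inf.2 ⟨h1, h2⟩, fun h => by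
      obtain ⟨a, b, ha⟩ := Submodule.mem_span_pair.1 h
      exact hx a b ha.symm⟩
  have a4 : LinearMap.ker (B.fn e) ⊓ LinearMap.ker (B.fn p) < LinearMap.ker (B.fn e) :=
    SetLike.lt_iff_le_and_exists.2 ⟨inf_le_left, f', f1, fun h => f2 h.2⟩
  have a5 : LinearMap.ker (B.fn e) < ⊤ :=
    SetLike.lt_iff_le_and_exists.2 ⟨le_top, f, trivial, by simp [hf]⟩
  have := Submodule.finrank_lt_finrank_of_lt a2
  have := Submodule.finrank_lt_finrank_of_lt a3
  have := Submodule.finrank_lt_finrank_of_lt a4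
  have := Submodule.finrank_lt_finrank_of_lt a5
  rw [finrank_top] at this
  omega

theorem exists_iso_np (hn : 3 ≤ finrank F V) {x y : V} (x0 : x ≠ 0) (y0 : y ≠ 0) (hx : B.h x x = 0)
    (hy : B.h y y = 0) : ∃ e, B.h e e = 0 ∧ B.h x e ≠ 0 ∧ B.h y e ≠ 0 := by
  by_cases h : B.h y x = 0
  · obtain ⟨f, f1, f2⟩ : ∃ f, B.h f x = 1 ∧ B.h f y ≠ 0 := by
      obtain ⟨f, hf⟩ := B.exists_ne x x0
      by_cases h1 : B.h f y = 0
      swap
      · exact ⟨f, hf, h1⟩
      obtain ⟨f', f1, f2⟩ : ∃ f', B.h f' x = 0 ∧ B.h f' y ≠ 0 := by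
        by_contra! h2
        obtain ⟨a, rfl⟩ := B.mem_one_of_perp h2
        simp_all
      exact ⟨f + f', by simp [hf, f1], by simp [h1, f2]⟩
    obtain ⟨c, hc⟩ := hyp B hx f1
    exact ⟨_, hc, B.symm_ne (by simp [f1, hx]), B.symm_ne (by simp [f2, B.symm_zero h])⟩
  obtain ⟨w, w1, w2, w3⟩ := nti3 B hn hx hy h
  obtain ⟨d, hd⟩ := B.tr_h w
  have d0 : d ≠ 0 := by rintro rfl; simp [← hd] at w3
  exact ⟨B.E x w d hx w1 y, by rw [B.E_isom hx w1 hd, hy], B.symm_ne (by simp [E_apply, w1, hx, h]),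
    B.symm_ne (by simp [E_apply, w2, hy, h, B.symm_zero w2, d0, B.symm_ne h])⟩

variable (hn : finrank F V = 4) (hσ : ∀ a, B.σ a = a) (hM : M ≤ SLV F V)
  (hH : ∀ g ∈ SLV F V, B.Sim g → g ∈ M) (hne : ¬ SLV F V ≤ M)
include hn hσ hM hH hne

theorem isom_mem : ∀ g ∈ SLV F V, B.Isom g → g ∈ M :=
  fun g hg hi => hH g hg ⟨1, fun x y => by simpa using hi x y⟩

theorem two_ne : (2 : F) ≠ 0 := fun h => by
  obtain ⟨t, ht⟩ := B.t0
  exact ht (by rw [hσ]; linear_combination t * h)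

theorem hsymm (x y : V) : B.h x y = B.h y x := by rw [← B.herm, hσ]

theorem triv {z : V ≃ₗ[F] V} (hz : z ∈ M) {e : V} (he : e ≠ 0) (h : ∀ x, ∃ c : F, z x = x + c • e) :
    z = 1 := by
  obtain ⟨ψ, hψ⟩ := exists_dual_one' (F := F) he
  have h1 : ∀ x, z x = x + (ψ ∘ₗ (z.toLinearMap - LinearMap.id)) x • e := fun x => by
    obtain ⟨c, hc⟩ := h x
    simp [hc, hψ]
  have h2 := det_of_apply h1
  rw [mem_SLV'.1 (hM hz)] at h2
  rcases tv_cases B hn.ge (isom_mem B hn hσ hM hH hne) ⟨z, hz, h1⟩ (by linear_combination -h2) he hne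
    with h3 | ⟨-, c, h3, h4⟩
  · ext x; rw [h1, h3]; simp
  · have : c = 0 := mul_left_cancel₀ (two_ne B hn hσ hM hH hne) (by rw [hσ] at h3; linear_combination h3)
    ext x; rw [h1, h4, this]; simp

theorem lift_eq {e w : V} {c : F} (he0 : e ≠ 0) (he : B.h e e = 0) (hw : B.h w e = 0)
    (hc : c + B.σ c = B.h w w) {z : V ≃ₗ[F] V} (hz : z ∈ M)
    (h : ∀ x, ∃ a : F, z x = x + B.h x e • w + a • e) : z = B.E e w c he hw := by
  have h1 := E_mem B hn.ge (isom_mem B hn hσ hM hH hne) he hw hc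
  have h2 : B.E e w c he hw e = e := B.E_fix _ _ he (B.symm_zero hw)
  refine inv_mul_eq_one.1 (triv B hn hσ hM hH hne (mul_mem (inv_mem h1) hz) he0 fun x => ?_) |>.symm
  obtain ⟨a, ha⟩ := h x
  refine ⟨a + B.h x w + c * B.h x e, (B.E e w c he hw).injective ?_⟩
  rw [LinearEquiv.mul_apply, apply_inv_apply, map_add, map_smul, h2, ha, E_apply]
  module

theorem stab_axis {e : V} (he0 : e ≠ 0) (he : B.h e e = 0) {y : V ≃ₗ[F] V} (hy : y ∈ M) {l : F}
    (hl : y e = l • e) : ∃ m : F, ∀ x, B.h (y x) e = m * B.h x e := by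
  have h2 := two_ne B hn hσ hM hH hne
  have hs := hsymm B hn hσ hM hH hne
  have hI := isom_mem B hn hσ hM hH hne
  suffices ∀ x, B.h x e = 0 → B.h (y x) e = 0 by
    obtain ⟨c, hc⟩ := dual_eq_smul_of_ker (φ := B.fn e) (ψ := B.fn e ∘ₗ y.toLinearMap) this
    exact ⟨c, LinearMap.congr_fun hc⟩
  by_contra! hcon
  have l0 : l ≠ 0 := by rintro rfl; simp [he0] at hl
  have hl' : y⁻¹ e = l⁻¹ • e := y.injective (by simp [hl, l0])
  obtain ⟨p, ⟨p1, p2⟩, p3⟩ := exists_not_mem_one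
    (K := LinearMap.ker (B.fn e) ⊓ LinearMap.ker (B.fn e ∘ₗ y.toLinearMap))
    (by have := finrank_ker₂_ge (B.fn e) (B.fn e ∘ₗ y.toLinearMap); omega) e
  replace p1 : B.h p e = 0 := p1
  replace p2 : B.h (y p) e = 0 := p2
  have key : ∀ w, B.h w e = 0 → ∀ s : F, B.h (w + (s * B.h (y w) e) • p) (w + (s * B.h (y w) e) • p) =
      B.h w w := fun w hw s => by
    have a1 : B.h (s • y p) e = 0 := by simp [p2]
    obtain ⟨c, hc⟩ := B.tr_h (s • y p)
    obtain ⟨d, hd⟩ := B.tr_h w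
    obtain ⟨d', hd'⟩ := B.tr_h (w + (s * B.h (y w) e) • p)
    have z1 := mul_mem (mul_mem (inv_mem hy) (E_mem B hn.ge hI he a1 hc)) hy
    set z := y⁻¹ * B.E e (s • y p) c he a1 * y with hz
    have z2 : ∀ x, ∃ a : F, z x = x + (s * B.h (y x) e) • p + a • e := fun x =>
      ⟨-l⁻¹ * (B.h (y x) (s • y p) + c * B.h (y x) e), by
        simp only [hz, E_apply, hl', LinearEquiv.mul_apply, map_add, map_sub, map_smul, inv_apply_apply]
        module⟩
    have z3 : z e = e := by simp [hz, hl, E_apply, he, B.symm_zero p2, hl', l0]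
    have z4 : ∀ x, B.h (z x) e = B.h x e := fun x => by
      obtain ⟨a, ha⟩ := z2 x
      simp [ha, p1, he]
    have a2 : B.h (w + (s * B.h (y w) e) • p) e = 0 := by simp [hw, p1]
    have z5 := lift_eq B hn hσ hM hH hne he0 he a2 hd'
      (mul_mem (mul_mem z1 (E_mem B hn.ge hI he hw hd)) (inv_mem z1)) fun x => by
        obtain ⟨x, rfl⟩ := z.surjective x
        obtain ⟨a, ha⟩ := z2 w
        exact ⟨B.h x e * a - B.h x w - d * B.h x e, by
          simp only [LinearEquiv.mul_apply, inv_apply_apply, E_apply, map_add, map_sub, map_smul, z3, z4,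
            ha]; module⟩
    obtain ⟨f, hf⟩ := B.exists_ne e he0
    have z6 := fun x => LinearEquiv.congr_fun z5 (z x)
    simp only [LinearEquiv.mul_apply, inv_apply_apply] at z6
    obtain ⟨a, ha⟩ := z2 w
    have z7 := z6 w
    simp only [E_apply, map_add, map_sub, map_smul, z3, z4, hw, zero_smul, add_zero, mul_zero,
      sub_zero, sub_right_inj] at z7
    rw [smul_left_injective F he0 z7, ha, add_left (x := w + _), smul_left, B.symm_zero a2]
    simp
  obtain ⟨w₀, w1, w2⟩ := hcon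
  have k1 : ∀ w, B.h w e = 0 → B.h (y w) e ≠ 0 → B.h w p = 0 := fun w a b => by
    have a1 := key w a 1
    have a2 := key w a (-1)
    simp only [add_left, add_right, smul_left, smul_right, hσ, hs p w] at a1 a2
    exact mul_left_cancel₀ (mul_ne_zero (mul_ne_zero h2 h2) b) (by linear_combination a1 - a2)
  obtain ⟨a, ha⟩ := B.mem_one_of_perp (x := e) (z := p) fun v hv => by
    by_cases h : B.h (y v) e = 0
    · simpa [k1 w₀ w1 w2] using k1 (v + w₀) (by simp [hv, w1]) (by simp [h, w2])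
    · exact k1 v hv h
  exact p3 a ha

theorem stab_sim {e : V} (he0 : e ≠ 0) (he : B.h e e = 0) {y : V ≃ₗ[F] V} (hy : y ∈ M) {l m : F}
    (hl : y e = l • e) (hm : ∀ x, B.h (y x) e = m * B.h x e) :
    ∀ x x', B.h (y x) (y x') = l * m * B.h x x' := by
  have h2 := two_ne B hn hσ hM hH hne
  have hs := hsymm B hn hσ hM hH hne
  have hI := isom_mem B hn hσ hM hH hne
  obtain ⟨f, hff, hf⟩ := hyp' B he0 he
  have l0 : l ≠ 0 := by rintro rfl; simp [he0] at hl
  have m0 : m ≠ 0 := by rintro rfl; simpa [hf] using hm (y⁻¹ f)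
  have k1 : ∀ w, B.h w e = 0 → ∀ x, B.h (y x) (y w) = l * m * B.h x w := fun w hw => by
    obtain ⟨c, hc⟩ := B.tr_h w
    obtain ⟨c', hc'⟩ := B.tr_h (m⁻¹ • y w)
    have a1 : B.h (m⁻¹ • y w) e = 0 := by simp [hm, hw]
    have z5 := lift_eq B hn hσ hM hH hne he0 he a1 hc'
      (mul_mem (mul_mem hy (E_mem B hn.ge hI he hw hc)) (inv_mem hy)) fun x => by
        obtain ⟨x, rfl⟩ := y.surjective x
        exact ⟨-l * (B.h x w + c * B.h x e), by
          simp only [LinearEquiv.mul_apply, inv_apply_apply, E_apply, map_add, map_sub, map_smul, hl, hm]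
          match_scalars <;> field_simp <;> ring⟩
    have z6 : ∀ x, l * m * (B.h x w + c * B.h x e) = B.h (y x) (y w) + c' * m * m * B.h x e := fun x => by
      have := LinearEquiv.congr_fun z5 (y x)
      simp only [LinearEquiv.mul_apply, inv_apply_apply, E_apply, map_add, map_sub, map_smul, hl, hm,
        smul_right, hσ] at this
      refine smul_left_injective F he0 (show _ • e = _ • e from ?_)
      linear_combination (norm := skip) -m • this
      match_scalars <;> field_simp <;> ring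
    have z7 := z6 w
    simp only [smul_left, smul_right, hσ] at hc hc'
    field_simp at hc'
    have : c' * m * m = l * m * c := mul_left_cancel₀ h2 (by
      rw [hw] at z7; linear_combination hc' - z7 - l * m * hc)
    intro x
    linear_combination -z6 x - B.h x e * this
  have k2 : ∀ k : V ≃ₗ[F] V, (∀ w, B.h w e = 0 → ∀ x, B.h (k x) (k w) = l * m * B.h x w) →
      B.h (k f) (k f) = 0 → ∀ x x', B.h (k x) (k x') = l * m * B.h x x' := fun k a b x x' => by
    have a1 := a (x' - B.h x' e • f) (by simp [hf]) x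
    have a2 := a (x - B.h x e • f) (by simp [hf]) f
    simp only [map_sub, map_smul, sub_right, smul_right, sub_left, smul_left, hσ, b, hff, hs (k f) (k x),
      hs f x] at a1 a2
    linear_combination a1 + B.h x' e * a2
  refine k2 y k1 ?_
  set d := -B.h (y f) (y f) / (2 * m * m) with hd
  have h0 : (d • B.fn e) e = 0 := by simp [he]
  have k3 := k2 (tv e _ h0 * y) (fun w hw x => by simp [hm, hw, hs e, k1 w hw])
    (by simp [hm, hf, hs e, he, hσ, hd]; field_simp; ring)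
  have k4 := triv B hn hσ hM hH hne (mul_mem (hH _ (mul_mem (tv_mem_SLV e _ h0) (hM hy))
    ⟨Units.mk0 _ (mul_ne_zero l0 m0), k3⟩) (inv_mem hy)) he0 fun x => ⟨d * B.h x e, by simp⟩
  have := LinearEquiv.congr_fun k4 f
  simpa [hf, he0, hd, m0, h2] using this

theorem map_iso {g : V ≃ₗ[F] V} (hg : g ∈ M) {e : V} (he : B.h e e = 0) : B.h (g e) (g e) = 0 := by
  by_contra hv
  have he0 : e ≠ 0 := by rintro rfl; simp at hv
  have hI := isom_mem B hn hσ hM hH hne
  have hs := hsymm B hn hσ hM hH hne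
  obtain ⟨u, u1, u0, hu⟩ := B.iso (LinearMap.ker (B.fn (g e)))
    (by have := finrank_ker_ge (B.fn (g e)); omega)
  replace u1 : B.h u (g e) = 0 := u1
  obtain ⟨w, w1, w2, w3⟩ : ∃ w, B.h w (g e) = 0 ∧ B.h w u = 0 ∧ B.h w w ≠ 0 := by
    obtain ⟨w, w', k1, k2, k3, k4, k5⟩ := nti2 B hn.ge hv u1
    by_contra! h
    exact k5 (B.zero_of_all_iso (LinearMap.ker (B.fn (g e)) ⊓ LinearMap.ker (B.fn u))
      (fun x hx => h x hx.1 hx.2) ⟨k1, k2⟩ ⟨k3, k4⟩)
  obtain ⟨c, hc⟩ := B.tr_h w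
  obtain ⟨p, rfl⟩ := g.surjective u
  obtain ⟨r, rfl⟩ := g.surjective w
  have k1 := mul_mem (mul_mem (inv_mem hg) (E_mem B hn.ge hI hu w2 hc)) hg
  set k := g⁻¹ * B.E _ _ c hu w2 * g with hk
  have k2 : ∀ x, k x = x + B.h (g x) (g p) • r - B.h (g x) (g r) • p - (c * B.h (g x) (g p)) • p :=
    fun x => by simp [hk, E_apply]
  have ke : k e = (1 : F) • e := by simp [k2, hs (g e), u1, w1]
  have kp : k p = p := by simp [k2, hu, hs (g p), w2]
  have kr : k r = r - B.h (g r) (g r) • p := by simp [k2, w2]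
  obtain ⟨m, hm⟩ := stab_axis B hn hσ hM hH hne he0 he k1 ke
  have k3 := stab_sim B hn hσ hM hH hne he0 he k1 ke hm
  have m1 : m = 1 := by
    by_contra h
    have a1 : B.h p e = 0 := by simpa [kp, h, eq_comm (b := m * _), mul_eq_right₀, mul_left_eq_self₀] using hm p
    have a2 : B.h r e = 0 := by
      simpa [kr, h, a1, eq_comm (b := m * _), mul_left_eq_self₀] using hm r
    obtain ⟨f, hf⟩ := B.exists_ne e he0
    simpa [k2, a1, a2, hf, h, eq_comm] using hm f
  simp only [m1, mul_one, one_mul, one_smul] at k3 ke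
  have k4 : ∀ z, k z = z → B.h p z = 0 ∧ B.h r z = 0 := fun z hz => by
    have a1 : B.h p z = 0 := by simpa [kr, hz, w3] using k3 r z
    obtain ⟨f, hf⟩ := B.exists_ne _ u0
    obtain ⟨f, rfl⟩ := g.surjective f
    have := k3 f z
    rw [hz] at this
    exact ⟨a1, by simpa [k2, hf, a1] using this⟩
  obtain ⟨a, b, h⟩ := perp_pair B hn (e := e) (p := p) (x := r) (fun a b h => by
    have h1 := congrArg (fun x => B.h (g x) (g e)) h
    simp [u1, hv] at h1
    simpa [h1, show p ≠ 0 by simpa using u0] using h) he (k4 p kp).1 (hs _ _ ▸ (k4 e ke).1)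
    (k4 e ke).2 (k4 p kp).2
  exact w3 (by nth_rewrite 1 [h]; simp [hs (g e), hs (g p), w1, w2])

theorem o_core {g : V ≃ₗ[F] V} (hg : g ∈ M) : B.Sim g := by
  have hI := isom_mem B hn hσ hM hH hne
  have hs := hsymm B hn hσ hM hH hne
  obtain ⟨e, -, he0, he⟩ := B.iso ⊤ (by simp; omega)
  have h1 := map_iso B hn hσ hM hH hne hg he
  obtain ⟨u, hu, u1, u2⟩ := exists_iso_np B (by omega) (x := g e) (by simpa using he0) he0 h1 he
  have a1 : B.h ((B.h e u)⁻¹ • e - (B.h (g e) u)⁻¹ • g e) u = 0 := by simp [u1, u2]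
  have a2 : -((B.h e u)⁻¹ * (B.h (g e) u)⁻¹ * B.h (g e) e) +
      B.σ (-((B.h e u)⁻¹ * (B.h (g e) u)⁻¹ * B.h (g e) e)) = B.h ((B.h e u)⁻¹ • e - (B.h (g e) u)⁻¹ • g e)
      ((B.h e u)⁻¹ • e - (B.h (g e) u)⁻¹ • g e) := by simp [hσ, he, h1, hs e (g e)]; ring
  have k1 := mul_mem (E_mem B hn.ge hI hu a1 a2) hg
  have k2 : (B.E _ _ (-((B.h e u)⁻¹ * (B.h (g e) u)⁻¹ * B.h (g e) e)) hu a1 * g) e =
      (B.h (g e) u * (B.h e u)⁻¹) • e := by
    simp only [LinearEquiv.mul_apply, E_apply, sub_right, smul_right, hσ, h1]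
    match_scalars <;> field_simp <;> ring
  obtain ⟨m, hm⟩ := stab_axis B hn hσ hM hH hne he0 he k1 k2
  have k3 := stab_sim B hn hσ hM hH hne he0 he k1 k2 hm
  simp only [LinearEquiv.mul_apply, B.E_isom hu a1 a2 _ _] at k3
  refine ⟨Units.mk0 _ fun h => ?_, k3⟩
  obtain ⟨f, hf⟩ := B.exists_ne (g e) (by simpa using he0)
  simpa [h, hf] using k3 (g⁻¹ f) e

omit hn hσ hM hH hne in
theorem o_maximal4 {F : Type*} [Field F] [Fintype F] (hodd : Odd (Fintype.card F))
    (Q : (Fin 4 → F) → F) (hQ : Geo.IsNondegenerateQuadraticForm Q) :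
    Geo.IsMaximalIn (Geo.specialLinear (Fin 4) F)
      (Geo.quadSimilarityGroup Q ⊓ Geo.specialLinear (Fin 4) F) := by
  have h2 : (2 : F) ≠ 0 := by
    apply Ring.two_ne_zero
    intro h
    have := FiniteField.even_card_of_char_two h
    rw [Nat.odd_iff] at hodd
    omega
  exact isMaximalIn_of_core (LinearEquiv.refl F _) _ (quadHF h2 hQ).Sim
    (fun g => quadHF_sim h2 hQ (glEquiv (LinearEquiv.refl F _) g)) (proper4 _ (by simp))
    fun M hM h1 ⟨g, hg, h3⟩ => by_contra fun hne =>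
      h3 (o_core _ (by simp) (fun _ => rfl) hM h1 hne hg)

end Cfsg.Agent.H9.L4
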