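import Cfsg.Agent.H9.L4.Mono1

/-! Imprimitive maximal subgroups of `SL_4(q)`, part two. -/

set_option autoImplicit false
set_option linter.unusedSimpArgs false
set_option linter.unusedSectionVars false
set_option linter.unusedVariables false

namespace Cfsg.Agent.H9.L4

open Module Cfsg.Agent.H6

attribute [-simp] LinearEquiv.coe_inv Submodule.mem_map_equiv

variable {F : Type*} [Field F]

theorem trace_eq_sum {ι : Type} [Fintype ι] [DecidableEq ι] (f : (ι → F) →ₗ[F] (ι → F)) :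
    LinearMap.trace F _ f = ∑ i, f (Pi.single i 1) i := by
  rw [LinearMap.trace_eq_matrix_trace F (Pi.basisFun F ι)]
  simp [Matrix.trace, LinearMap.toMatrix_apply]

theorem exists_tw {ι : Type} [Fintype ι] [DecidableEq ι] (v : ι → F) {p q : ι} (hpq : p ≠ q)
    (hp : v p ≠ 0) (hq : v q ≠ 0) : ∃ τ ∈ monoSub F ι F,
      LinearMap.det (τ : (ι → F) →ₗ[F] (ι → F)) = -1 ∧ ∀ x l, τ x l =
        if l = p then v p * (x q / v q) else if l = q then v q * (x p / v p) else x l := by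
  let φ : Dual F (ι → F) := (v q)⁻¹ • co q - (v p)⁻¹ • co p
  let w : ι → F := Pi.single p (v p) - Pi.single q (v q)
  have h1 : 1 + φ w = -1 := by
    simp [φ, w, hpq, hpq.symm, hp, hq]
  have hu : IsUnit (1 + φ w) := by simp [h1]
  have h2 : ∀ x, LinearEquiv.dilatransvection hu x = x + φ x • w :=
    fun x => LinearEquiv.dilatransvection.apply
  have h3 : ∀ x l, LinearEquiv.dilatransvection hu x l =
      if l = p then v p * (x q / v q) else if l = q then v q * (x p / v p) else x l := by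
    intro x l
    rw [h2]
    split_ifs with h3 h4
    · simp [φ, w, h3, hpq]; field_simp; ring
    · simp [φ, w, h4, hpq.symm]; field_simp; ring
    · simp [φ, w, h3, h4]
  refine ⟨_, mono_of_weak fun i => ⟨Equiv.swap p q i, fun a l hl => ?_⟩,
    by rw [det_of_apply h2, h1], h3⟩
  rw [h3]
  split_ifs with h3 h4
  · have : q ≠ i := by rintro rfl; simp [h3] at hl
    simp [this]
  · have : p ≠ i := by rintro rfl; simp [h4] at hl
    simp [this]
  · have : l ≠ i := by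
      rintro rfl
      exact hl (Equiv.swap_apply_of_ne_of_ne h3 h4).symm
    simp [this]

theorem exists_gen7 [Fintype F] (hq : 7 ≤ Fintype.card F) :
    ∃ l : F, l ≠ 0 ∧ l ^ 2 ≠ 1 ∧ l ^ 3 ≠ 1 ∧ l ^ 4 ≠ 1 := by
  classical
  obtain ⟨g, hg⟩ := IsCyclic.exists_ofOrder_eq_natCard (α := Fˣ)
  rw [Nat.card_units, Nat.card_eq_fintype_card] at hg
  have key : ∀ n : ℕ, 0 < n → n ≤ 4 → (g : F) ^ n ≠ 1 := by
    intro n h0 h1 h2
    have := Nat.le_of_dvd h0 (orderOf_dvd_of_pow_eq_one (x := g) (n := n) (Units.ext (by simpa)))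
    omega
  exact ⟨g, g.ne_zero, key 2 (by omega) (by omega), key 3 (by omega) (by omega),
    key 4 (by omega) (by omega)⟩

section Main

variable [Fintype F] {M : Subgroup ((Fin 4 → F) ≃ₗ[F] (Fin 4 → F))}
  (hq : 7 ≤ Fintype.card F) (hM : M ≤ SLV F (Fin 4 → F))
  (hH : ∀ g ∈ SLV F (Fin 4 → F), g ∈ monoSub F (Fin 4) F → g ∈ M) (hne : ¬ SLV F (Fin 4 → F) ≤ M)
include hq hM hH hne

theorem eig_col {g : (Fin 4 → F) ≃ₗ[F] (Fin 4 → F)} (hg : g ∈ M) {δ : Fin 4 → F} {a : Fin 4}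
    (hδ : ∀ m ≠ a, δ m ≠ δ a)
    (h : ∀ i, ∃ c, ∀ m, δ m * g (Pi.single i 1) m = c * g (Pi.single i 1) m) :
    g ∈ monoSub F (Fin 4) F := by
  obtain ⟨i, hi⟩ := exists_single_ne (ξ := co a ∘ₗ (g : (Fin 4 → F) →ₗ[F] (Fin 4 → F))) (fun h0 => by
    simpa using LinearMap.congr_fun h0 (g⁻¹ (Pi.single a 1)))
  obtain ⟨c, hc⟩ := h i
  refine mono_of_col4 (by omega) (by simp) hM hH hne hg (i := i) (j := a) fun l hl => ?_
  by_contra h0
  exact hδ l hl ((mul_right_cancel₀ h0 (hc l)).trans (mul_right_cancel₀ hi (hc a)).symm)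

theorem conj_mono {g d : (Fin 4 → F) ≃ₗ[F] (Fin 4 → F)} (hg : g ∈ M) (hd : d ∈ M) {o : Fin 4} {c : F}
    (h : d (g (Pi.single o 1)) = c • g (Pi.single o 1)) :
    ∃ (σ : Equiv.Perm (Fin 4)) (A : Fin 4 → F), σ o = o ∧ (∀ i, A i ≠ 0) ∧
      ∀ i, d (g (Pi.single i 1)) = A i • g (Pi.single (σ i) 1) := by
  have h1 : (g⁻¹ * d * g) (Pi.single o 1) = c • Pi.single o 1 := by simp [h]
  obtain ⟨σ, A, hA⟩ := mono_of_fixes4 (by omega) (by simp) hM hH hne (o := o)
    (mul_mem (mul_mem (inv_mem hg) hd) hg) fun i hi => by simp [h1, hi]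
  have h2 := mono_single hA
  have h3 : ∀ i, A i 1 ≠ 0 := fun i => by simp
  refine ⟨σ, fun i => A i 1, ?_, h3, fun i => ?_⟩
  · by_contra e
    have := congrFun ((h2 o).symm.trans h1) (σ o)
    simp [e] at this
  · rw [← map_smul, ← single_eq_smul, ← h2]; simp

theorem two_zero {g : (Fin 4 → F) ≃ₗ[F] (Fin 4 → F)} (hg : g ∈ M) {o a b : Fin 4} (hab : a ≠ b)
    (ha : g (Pi.single o 1) a = 0) (hb : g (Pi.single o 1) b = 0) : g ∈ monoSub F (Fin 4) F := by
  obtain ⟨t, t0, t2, t3, t4⟩ := exists_gen7 hq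
  have h1 : dd a b t t0 (g (Pi.single o 1)) = (1 : F) • g (Pi.single o 1) := by
    ext l
    rw [dd_apply hab]
    split_ifs with h3 h4 <;> simp [*]
  obtain ⟨σ, A, s1, s2, s3⟩ := conj_mono hq hM hH hne hg (dd_mem hH a b t t0) h1
  have : (∀ i, σ (σ i) = i) ∨ ∀ i ≠ o, σ i ≠ i := by clear * - s1; revert σ o; decide
  rcases this with h | h
  · refine eig_col hq hM hH hne hg (δ := fun m => if m = a then t * t else if m = b then t⁻¹ * t⁻¹ else 1)
      (a := a) (fun m hm => ?_) fun i => ⟨A i * A (σ i), fun m => ?_⟩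
    · simp only [hm, if_false, if_true]
      split_ifs
      · exact fun e => t4 (by field_simp at e; linear_combination -e)
      · exact fun e => t2 (by linear_combination -e)
    · have := congrFun (congrArg (dd a b t t0) (s3 i)) m
      rw [map_smul, s3 (σ i), h] at this
      simp only [dd_apply hab, Pi.smul_apply, smul_eq_mul] at this
      split_ifs at this ⊢ <;> linear_combination this
  · exfalso
    have e := LinearMap.trace_conj' (dd a b t t0).toLinearMap g⁻¹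
    rw [trace_eq_sum, trace_eq_sum, Finset.sum_eq_single o (fun i _ hi => by
      have : g⁻¹.symm = g := rfl
      simp [this, s3, (h i hi).symm]) (by simp)] at e
    have e1 : g⁻¹.symm = g := rfl
    simp only [LinearEquiv.conj_apply_apply, e1, LinearEquiv.coe_coe, h1, one_smul, inv_apply_apply,
      Pi.single_eq_same, dd_apply hab, mul_one] at e
    have e2 : ∑ i : Fin 4, (if i = a then t else if i = b then t⁻¹ else 1) = t + t⁻¹ + 2 := by
      clear * - hab
      fin_cases a <;> fin_cases b <;> simp_all [Fin.sum_univ_four] <;> ring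
    rw [e2] at e
    exact t3 (by field_simp at e; linear_combination (1 - t) * e)

theorem one_zero {g : (Fin 4 → F) ≃ₗ[F] (Fin 4 → F)} (hg : g ∈ M) {o a : Fin 4}
    (ha : g (Pi.single o 1) a = 0) : g ∈ monoSub F (Fin 4) F := by
  obtain ⟨t, t0, t2, t3, t4⟩ := exists_gen7 hq
  obtain ⟨b, c, d, h1, h2, h3, h4, h5, h6, h7⟩ : ∃ b c d, b ≠ a ∧ c ≠ a ∧ d ≠ a ∧ b ≠ c ∧ b ≠ d ∧
      c ≠ d ∧ ∀ m, m = a ∨ m = b ∨ m = c ∨ m = d := by clear * -; revert a; decide
  have hD := mul_mem (mul_mem (dd_mem hH b a t t0) (dd_mem hH c a t t0)) (dd_mem hH d a t t0)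
  set D := dd b a t t0 * dd c a t t0 * dd d a t t0 with hD'
  have e : ∀ x m, D x m = (if m = a then t⁻¹ * t⁻¹ * t⁻¹ else t) * x m := fun x m => by
    rcases h7 m with rfl | rfl | rfl | rfl <;>
      simp [hD', dd_apply, h1, h2, h3, h4, h5, h6, h1.symm, h2.symm, h3.symm, h4.symm, h5.symm,
        h6.symm, mul_assoc]
  obtain ⟨σ, A, s1, s2, s3⟩ := conj_mono hq hM hH hne hg hD (o := o) (c := t) (by
    ext m; by_cases h : m = a <;> simp [e, h, ha])
  by_cases h : ∀ i, σ i = i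
  · refine eig_col hq hM hH hne hg (δ := fun m => if m = a then t⁻¹ * t⁻¹ * t⁻¹ else t) (a := a)
      (fun m hm => ?_) fun i => ⟨A i, fun m => by simpa [e, h] using congrFun (s3 i) m⟩
    simp only [hm, if_false, if_true]
    exact fun e => t4 (by field_simp at e; linear_combination e)
  push Not at h
  obtain ⟨i, hi⟩ := h
  obtain ⟨p, q, p1, p2, q1, q2, pq⟩ : ∃ p q, p ≠ i ∧ p ≠ σ i ∧ q ≠ i ∧ q ≠ σ i ∧ p ≠ q := by
    generalize σ i = j; clear * -; revert i j; decide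
  have e1 : A i • (Pi.single (σ i) 1 : Fin 4 → F) - t • Pi.single i 1 =
      ((t⁻¹ * t⁻¹ * t⁻¹ - t) * g (Pi.single i 1) a) • g⁻¹ (Pi.single a 1) := g.injective (by
    rw [map_sub, map_smul, map_smul, map_smul, ← s3, apply_inv_apply]
    ext m; by_cases h : m = a <;> simp [e, h, sub_mul])
  have e2 : (t⁻¹ * t⁻¹ * t⁻¹ - t) * g (Pi.single i 1) a ≠ 0 := fun h => by
    simpa [h, hi, s2] using congrFun e1 (σ i)
  simpa using inv_mem (two_zero hq hM hH hne (inv_mem hg) (o := a) pq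
    (by simpa [p1, p2, e2] using (congrFun e1 p).symm) (by simpa [q1, q2, e2] using (congrFun e1 q).symm))

theorem mono_of_mem4 {g : (Fin 4 → F) ≃ₗ[F] (Fin 4 → F)} (hg : g ∈ M) : g ∈ monoSub F (Fin 4) F := by
  by_contra hg'
  obtain ⟨t, t0, t2, t3, t4⟩ := exists_gen7 hq
  set y := g (Pi.single 0 1) with hy
  have y0 : ∀ a, y a ≠ 0 := fun a h => hg' (one_zero hq hM hH hne hg h)
  obtain ⟨τ₁, m₁, d₁, e₁⟩ := exists_tw y (p := 0) (q := 1) (by decide) (y0 _) (y0 _)
  obtain ⟨τ₂, m₂, d₂, e₂⟩ := exists_tw y (p := 2) (q := 3) (by decide) (y0 _) (y0 _)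
  have hs : τ₁ * τ₂ ∈ M := hH _ (by
    rw [mem_SLV', LinearEquiv.coe_toLinearMap_mul, map_mul, d₁, d₂]; simp) (mul_mem m₁ m₂)
  let u : Fin 4 → F := ![y 0, y 1, 0, 0]
  let w : Fin 4 → F := ![0, 0, y 2, y 3]
  have s1 : ∀ x, (τ₁ * τ₂) x = x ↔ ∃ a b : F, x = a • u + b • w := fun x => by
    refine ⟨fun h => ⟨x 0 / y 0, x 2 / y 2, ?_⟩, ?_⟩
    · have h1 := congrFun h 1
      have h3 := congrFun h 3
      ext i
      fin_cases i <;> simp [e₁, e₂, u, w, y0] at h1 h3 ⊢ <;> simp [← h1, ← h3, mul_comm]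
    · rintro ⟨a, b, rfl⟩
      ext i
      fin_cases i <;> simp [e₁, e₂, u, w, y0, mul_comm]
  have s2 : ∀ x, (τ₁ * τ₂) ((τ₁ * τ₂) x) = x := fun x => by
    ext i
    fin_cases i <;> simp [e₁, e₂, y0, mul_div_cancel₀]
  have huw : y = u + w := by ext i; fin_cases i <;> simp [u, w]
  have hk : ∀ (c : F) (hc : c ≠ 0), ∃ k ∈ M, g (k (Pi.single 0 1)) = c • u + c⁻¹ • w := fun c hc =>
    ⟨_, mul_mem (mul_mem (inv_mem hg) (mul_mem (dd_mem hH 0 2 c hc) (dd_mem hH 1 3 c hc))) hg, by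
      ext i; fin_cases i <;> simp [← hy, dd_apply, u, w]⟩
  have ind : ∀ a b : F, a • u + b • w = 0 → a = 0 ∧ b = 0 := fun a b h =>
    ⟨by simpa [u, w, y0] using congrFun h 0, by simpa [u, w, y0] using congrFun h 2⟩
  have col : ∀ k ∈ monoSub F (Fin 4) F, ∀ c : F, c * c ≠ 1 → g (k (Pi.single 0 1)) = c • u + c⁻¹ • w →
      ∃ l ≠ 0, ∃ a : F, a ≠ 0 ∧ k (Pi.single 0 1) = a • Pi.single l 1 := by
    rintro k ⟨σ, A, hA⟩ c hc h
    refine ⟨σ 0, fun e => hc ?_, A 0 1, by simp, by rw [mono_single hA, single_eq_smul]⟩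
    rw [mono_single hA, e, single_eq_smul, map_smul, ← hy, huw] at h
    obtain ⟨a, b⟩ := ind (A 0 1 - c) (A 0 1 - c⁻¹) (by linear_combination (norm := module) h)
    have c0 : c ≠ 0 := by rintro rfl; simp at a
    have : c = c⁻¹ := by linear_combination b - a
    nth_rewrite 2 [this]; exact mul_inv_cancel₀ c0
  obtain ⟨l, l0, s, r, hl⟩ : ∃ l ≠ 0, ∃ a b : F, g (Pi.single l 1) = a • u + b • w := by
    obtain ⟨k, k1, k2⟩ := hk t t0
    by_cases h : k ∈ monoSub F (Fin 4) F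
    · obtain ⟨l, l0, a, a0, e⟩ := col k h t (by rwa [← sq]) k2
      refine ⟨l, l0, a⁻¹ * t, a⁻¹ * t⁻¹, ?_⟩
      rw [← smul_smul, ← smul_smul, ← smul_add, ← k2, e, map_smul, inv_smul_smul₀ a0]
    obtain ⟨σ, A, b1, b2, b3⟩ := conj_mono hq hM hH hne hg hs (o := 0) (c := 1) (by
      rw [one_smul, s1]; exact ⟨1, 1, by simp [← hy, huw]⟩)
    have b4 : ∀ i, σ (σ i) = i := fun i => by
      have := congrArg (τ₁ * τ₂) (b3 i)
      rw [s2, map_smul, b3, ← map_smul, ← map_smul, g.injective.eq_iff] at this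
      by_contra e
      simpa [e, Ne.symm e] using congrFun this i
    obtain ⟨l, l0, l1⟩ : ∃ l ≠ 0, σ l = l := by clear * - b1 b4; revert σ; decide
    refine ⟨l, l0, (s1 _).1 ?_⟩
    have b5 := (s1 _).2 ⟨_, _, k2⟩
    rw [← Finset.univ_sum_single (k (Pi.single 0 1))] at b5
    simp only [map_sum, single_eq_smul _ (k _ _), map_smul, b3, smul_smul] at b5
    simp only [← map_smul, ← map_sum, g.injective.eq_iff] at b5
    have b6 := congrFun b5 l
    simp only [Finset.sum_apply, Pi.smul_apply, smul_eq_mul] at b6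
    rw [Finset.sum_eq_single l (fun i _ hi => by
      simp [show l ≠ σ i from fun e => hi (σ.injective (e.symm.trans l1.symm))]) (by simp),
      Finset.sum_eq_single l (fun i _ hi => by simp [hi.symm]) (by simp)] at b6
    simp only [l1, Pi.single_eq_same, mul_one] at b6
    rw [b3, l1, mul_right_eq_self₀.1 b6 |>.resolve_right fun e => h (one_zero hq hM hH hne k1 e),
      one_smul]
  have sr : s - r ≠ 0 := fun h => by
    rw [sub_eq_zero.1 h, ← smul_add, ← huw, hy, ← map_smul, g.injective.eq_iff] at hl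
    simpa [l0] using congrFun hl l
  have key : ∀ c : F, c ≠ 0 → c * c ≠ 1 → c * r = c⁻¹ * s := fun c c0 hc => by
    obtain ⟨k, k1, k2⟩ := hk c c0
    have e : (s - r) • k (Pi.single 0 1) =
        (c - c⁻¹) • Pi.single l 1 + (s * c⁻¹ - c * r) • Pi.single 0 1 := g.injective (by
      rw [map_add, map_smul, map_smul, map_smul, k2, hl, ← hy, huw]; module)
    obtain ⟨m, m0, ml⟩ := exists_third (ι := Fin 4) (by simp) 0 l
    obtain ⟨l', l0', a, a0, e'⟩ := col k (one_zero hq hM hH hne k1 (o := 0) (a := m) (by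
      simpa [m0, ml, sr] using congrFun e m)) c hc k2
    have := congrFun e 0
    simp [e', l0, l0', l0.symm, l0'.symm] at this
    linear_combination this
  have k1 := key t t0 (by rwa [← sq])
  have k2 := key (t * t) (mul_ne_zero t0 t0) (by rw [← sq, ← sq, ← pow_mul]; exact t4)
  field_simp at k1 k2
  have r0 : r ≠ 0 := by rintro rfl; simp [← k1] at sr
  exact t2 (mul_left_cancel₀ (mul_ne_zero (pow_ne_zero 2 t0) r0) (by linear_combination k2 - k1))

end Main

theorem c2_one [Fintype F] {D : Fin 4 → Submodule F (Fin 4 → F)} (hD : Geo.IsMDecomposition 1 D)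
    (hq : 7 ≤ Fintype.card F) : Geo.IsMaximalIn (Geo.specialLinear (Fin 4) F)
      (Geo.decompositionStabilizer D ⊓ Geo.specialLinear (Fin 4) F) := by
  obtain ⟨e, he⟩ := exists_decomp_equiv (W := F) hD (by simp)
  refine isMaximalIn_of_core e _ (· ∈ monoSub F (Fin 4) F)
    (mem_decompositionStabilizer_iff he) (mono_proper (by simp))
    fun M hM h1 ⟨g, hg, h2⟩ => ?_
  by_contra hne
  exact h2 (mono_of_mem4 hq hM h1 hne hg)

theorem two_core {W : Type*} [AddCommGroup W] [Module F W] [FiniteDimensional F W] [Nontrivial W]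
    {M : Subgroup ((Fin 2 → W) ≃ₗ[F] (Fin 2 → W))} (hW : 2 ≤ finrank F W) {l : F} (l0 : l ≠ 0)
    (l1 : l * l ≠ 1) (hH : ∀ g ∈ SLV F (Fin 2 → W), g ∈ monoSub F (Fin 2) W → g ∈ M)
    {g : (Fin 2 → W) ≃ₗ[F] (Fin 2 → W)} (hg : g ∈ M) (hg' : g ∉ monoSub F (Fin 2) W) :
    SLV F (Fin 2 → W) ≤ M := by
  obtain ⟨i₀, a₀, i₁, i₂, h12, h1, h2⟩ := exists_two_comp hg'
  obtain ⟨α₀, hα₀, hα₀'⟩ := exists_dual_ker₁ hW a₀
  have hT : ∀ c : F, HasT M (c • g (Pi.single i₀ a₀)) (dconj g (pr i₀ α₀)) := fun c => by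
    simpa [Pi.single_smul] using (block_hasT hH i₀ (a := c • a₀) (α := α₀) (by simp [hα₀'])).conj' hg
  set u := g (Pi.single i₀ a₀)
  set ψ := dconj g (pr i₀ α₀) with hψ
  have hψu : ψ u = 0 := by simp [hψ, u, hα₀']
  have hψ0 : ψ ≠ 0 := by
    intro h0
    obtain ⟨w, hw⟩ := exists_apply_eq_one hα₀
    have := LinearMap.congr_fun h0 (g (Pi.single i₀ w))
    simp [hψ, hw] at this
  obtain ⟨j, hj⟩ := exists_res_ne hψ0
  obtain ⟨i, hij, hi, hu⟩ : ∃ i, i ≠ j ∧ (∀ k, u k ≠ 0) ∧ u = Pi.single i (u i) + Pi.single j (u j) := by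
    have : ∀ k, u k ≠ 0 := fun k => by
      rcases (show k = i₁ ∨ k = i₂ by omega) with rfl | rfl <;> assumption
    refine ⟨j + 1, by omega, this, ?_⟩
    ext k; fin_cases j <;> fin_cases k <;> simp
  by_cases h : ψ (Pi.single j (u j)) = 0
  swap
  · obtain ⟨α, hα, h3⟩ := exists_dual_ker₁ hW (u j)
    exact mono_X hW hH (by simpa using hT 1) hψu hij (hi i) (a := (ψ (Pi.single j (u j)))⁻¹ • u j)
      (by simp [Pi.single_smul, h]) hα (by simp [h3]) h3
  have h' : ψ (Pi.single i (u i)) = 0 := by rwa [hu, map_add, h, add_zero] at hψu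
  obtain ⟨a, ha⟩ := exists_apply_eq_one hj
  obtain ⟨γ, hγ⟩ := exists_dual_one' (F := F) (hi i)
  obtain ⟨γ', hγ'⟩ := exists_dual_one' (F := F) (hi j)
  have e1 : pr i γ (Pi.single i (u i)) = 1 := by simp [hγ]
  have e2 : pr j γ' (Pi.single j (u j)) = 1 := by simp [hγ']
  have hd : hom _ _ e1 l l0 * hom _ _ e2 l⁻¹ (inv_ne_zero l0) ∈ M := by
    refine hH _ ?_ (mul_mem (hom_mem_mono _ _ _ _ _ _) (hom_mem_mono _ _ _ _ _ _))
    rw [mem_SLV', LinearEquiv.coe_toLinearMap_mul, map_mul, det_hom, det_hom, mul_inv_cancel₀ l0]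
  have hT' := ((hT 1).conj hd (ψ := ψ) fun x => by simp [hom_apply, h, h']).sub_left (hT l⁻¹)
    (by simp [hψu])
  obtain ⟨α, hα, h3⟩ := exists_dual_ker₁ hW a
  refine mono_X hW hH hT' (by simp [hom_apply, h, h', hψu]) hij ?_ ha hα h3 ?_
  · simp only [hom_apply, one_smul, LinearEquiv.mul_apply, pr_apply, Pi.sub_apply, Pi.add_apply,
      Pi.smul_apply, Pi.single_eq_same, Pi.single_eq_of_ne hij, smul_zero, add_zero, hγ, mul_one]
    rw [show u i + (l - 1) • u i - l⁻¹ • u i = (l - l⁻¹) • u i by module]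
    exact smul_ne_zero (fun e => l1 (by field_simp at e; linear_combination e)) (hi i)
  · simp [hom_apply, hij.symm, hγ', sub_smul]

theorem c2_two [Fintype F] {D : Fin 2 → Submodule F (Fin 4 → F)} (hD : Geo.IsMDecomposition 2 D)
    (hq : 4 ≤ Fintype.card F) : Geo.IsMaximalIn (Geo.specialLinear (Fin 4) F)
      (Geo.decompositionStabilizer D ⊓ Geo.specialLinear (Fin 4) F) := by
  obtain ⟨e, he⟩ := exists_decomp_equiv (W := Fin 2 → F) hD (by simp)
  obtain ⟨l, l0, l1, l2⟩ := exists_ne_three hq (0 : F) 1 (-1)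
  exact isMaximalIn_of_core e _ (· ∈ monoSub F (Fin 2) (Fin 2 → F))
    (mem_decompositionStabilizer_iff he) (mono_proper (by simp))
    fun M _ h1 ⟨g, hg, h2⟩ => two_core (by simp) l0 (by simp [mul_self_eq_one_iff, l1, l2]) h1 hg h2

end Cfsg.Agent.H9.L4
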